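import Cfsg.Agent.H852.Wf.Gen
import Cfsg.Agent.H177.AACo2

/-!
# S3826, `p = 3`: `Co2` (helper852), `McL < Co2` has index 47104
-/

set_option autoImplicit false

namespace Cfsg.Agent.H852.Wf

open Subgroup Cfsg Cfsg.Agent.H533.Wf

universe v

theorem co2 (K : Type v) [Group K] [Finite K] [IsSimpleGroup K] (h : Spor.IsoCo2 K) : ARow 3 K := by
  have D := Cfsg.Agent.H177.AACo2.dat_co2 h
  obtain ⟨e⟩ := h
  have hs := Cfsg.Agent.H177.AACo2.simple_McL
  have hc := Cfsg.Agent.H177.AACo2.card_McL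
  have hfin : Finite Spor.McL := Nat.finite_of_card_ne_zero (by rw [hc]; norm_num)
  have hfin2 := Cfsg.Agent.Schreier.CoTwoStab.finite
  refine arow_of_hom ?_ (X := Spor.McL) (by rw [hc]; norm_num)
    (e.symm.toMonoidHom.comp (inclusion Cfsg.Agent.H177.AACo2.McL_le_Co2)) ?_
    (by rw [hc, D.card]; norm_num) (by rw [hc, D.card]; norm_num)
  · intro α _
    obtain ⟨g, hg⟩ := Cfsg.Agent.KFacts.CoTwo.QuotInst.dataT.allInner (MulAut.congr e α)
    refine ⟨e.symm g, ?_⟩
    ext y
    have h2 := congrArg (fun β : MulAut Spor.Co2 => e.symm (β (e y))) hg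
    simp only [MulAut.congr, MulEquiv.coe_mk, Equiv.coe_fn_mk, MulEquiv.trans_apply,
      MulEquiv.symm_apply_apply, MulAut.conj_apply, map_mul, map_inv] at h2
    rw [h2, MulAut.conj_apply]
  · rw [MonoidHom.coe_comp]
    exact e.symm.injective.comp (inclusion_injective _)

end Cfsg.Agent.H852.Wf
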